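import Mathlib
import Cfsg.Agent.Lib.Helper58.OElm.Defs

/-!
# OELM (S5990): package [DERM]
-/

set_option autoImplicit false
open scoped MatrixGroups
open Matrix

namespace Cfsg.Agent.Lib.Helper38.OElm

open Cfsg.Agent.Lib.Helper23.OHyp Cfsg.Agent.Lib.Helper44.OElp Cfsg.Agent.Lib.Helper58.OElm Module

universe u

theorem cc_even' (q r : ℕ) : Even (cc q r) := by
  unfold cc
  split_ifs with h
  · exact h
  · exact even_two_mul _

theorem cc_of_even' (q r : ℕ) (h : Even (ordI q r)) : cc q r = ordI q r := by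
  unfold cc
  rw [if_pos h]

theorem iff_of_not_iff_pair {A B B' : Prop} (h1 : ¬ (A ↔ B)) (h2 : ¬ (A ↔ B')) : B ↔ B' := by
  by_cases hA : A <;> by_cases hB : B <;> by_cases hB' : B' <;> tauto

theorem pkgDerM_of (hSplit : PkgSplitE.{u}) (hDiv : PkgDivE.{u}) (hSum : PkgSumE.{u}) :
    PkgDerM.{u} := by
  intro F _ _ ι _ _ Q r x hS hPlus hcard m W hm hWm hWnd hWnp hWinv
  obtain ⟨hNdC, hNdN, hPerp, hCompl, hInvN, hW⟩ := hSplit F ι Q r x hS
  obtain ⟨hNdWC, hNdWN, hInvWN, hsup, hdim⟩ := hW W hWinv hWnd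
  obtain ⟨hdvdN, hPN⟩ := hDiv F ι Q r x hS (movSp x) le_rfl hInvN hNdN
  obtain ⟨hdvdW, hPWN⟩ := hDiv F ι Q r x hS (W ⊓ movSp x) inf_le_right hInvWN hNdWN
  have hj : finrank F ↥(W ⊓ movSp x) =
      cc (Fintype.card F) r * (finrank F ↥(W ⊓ movSp x) / cc (Fintype.card F) r) :=
    (Nat.mul_div_cancel' hdvdW).symm
  have hJ : finrank F ↥(movSp x) =
      cc (Fintype.card F) r * (finrank F ↥(movSp x) / cc (Fintype.card F) r) :=
    (Nat.mul_div_cancel' hdvdN).symm
  have hle1 : finrank F ↥(W ⊓ movSp x) ≤ finrank F ↥(movSp x) :=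
    Submodule.finrank_mono inf_le_right
  have hle2 : finrank F ↥(W ⊓ fixSp x) ≤ finrank F ↥(fixSp x) :=
    Submodule.finrank_mono inf_le_right
  have hce := cc_even' (Fintype.card F) r
  refine ⟨finrank F ↥(W ⊓ movSp x) / cc (Fintype.card F) r, by omega, by omega, ?_⟩
  have he : m - cc (Fintype.card F) r * (finrank F ↥(W ⊓ movSp x) / cc (Fintype.card F) r) =
      finrank F ↥(W ⊓ fixSp x) := by omega
  rw [he]
  unfold GoodM
  by_cases h0 : finrank F ↥(W ⊓ fixSp x) = 0
  · -- `W = W ⊓ N`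
    right
    left
    have hbot : W ⊓ fixSp x = ⊥ := Submodule.finrank_eq_zero.mp h0
    have hWN : W ⊓ movSp x = W := by
      rw [hbot, bot_sup_eq] at hsup
      exact hsup
    have h1 : ¬ (Odd (ordI (Fintype.card F) r) ∨
        Even (finrank F ↥(W ⊓ movSp x) / ordI (Fintype.card F) r)) := by
      intro h
      apply hWnp
      rw [← hWN]
      exact hPWN.mpr h
    rw [not_or] at h1
    have hie : Even (ordI (Fintype.card F) r) := Nat.not_odd_iff_even.mp h1.1
    have hc := cc_of_even' _ _ hie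
    refine ⟨h0, hie, ?_⟩
    rw [hc]
    exact Nat.not_even_iff_odd.mp h1.2
  · by_cases hlt : finrank F ↥(W ⊓ fixSp x) < finrank F ↥(fixSp x)
    · left
      exact ⟨Nat.pos_of_ne_zero h0, hlt⟩
    · right
      right
      have heq : finrank F ↥(W ⊓ fixSp x) = finrank F ↥(fixSp x) := by omega
      refine ⟨Nat.pos_of_ne_zero h0, heq, ?_⟩
      by_cases hio : Odd (ordI (Fintype.card F) r)
      · exact Or.inl hio
      right
      have hie : Even (ordI (Fintype.card F) r) := Nat.not_odd_iff_even.mp hio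
      have hc := cc_of_even' _ _ hie
      have hWC : W ⊓ fixSp x = fixSp x := Submodule.eq_of_le_of_finrank_eq inf_le_right heq
      rw [hWC] at hsup hdim
      have hPerp' : Perp Q (fixSp x) (W ⊓ movSp x) := fun a ha b hb => hPerp a ha b hb.2
      have hevWN : Even (finrank F ↥(W ⊓ movSp x)) := by
        rw [hj]
        exact hce.mul_right _
      have hevN : Even (finrank F ↥(movSp x)) := by
        rw [hJ]
        exact hce.mul_right _
      have hevC : Even (finrank F ↥(fixSp x)) := by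
        have h4 : finrank F ↥(fixSp x) + finrank F ↥(W ⊓ movSp x) = m := by omega
        rw [← h4] at hm
        exact (Nat.even_add.mp hm).mpr hevWN
      have hs1 := (hSum F ι Q hS.nondeg (fixSp x) (W ⊓ movSp x) hNdC hNdWN hPerp').2.2
        hevC hevWN
      have hs2 := (hSum F ι Q hS.nondeg (fixSp x) (movSp x) hNdC hNdN hPerp).2.2 hevC hevN
      rw [hsup] at hs1
      rw [hCompl.sup_eq_top] at hs2
      have hne1 : ¬ (Plus Q (fixSp x) ↔ Plus Q (movSp x)) := fun h => hPlus (hs2.mpr h)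
      have hne2 : ¬ (Plus Q (fixSp x) ↔ Plus Q (W ⊓ movSp x)) := fun h => hWnp (hs1.mpr h)
      have hiff : Plus Q (movSp x) ↔ Plus Q (W ⊓ movSp x) := iff_of_not_iff_pair hne1 hne2
      rw [hPN, hPWN] at hiff
      rw [hc]
      rw [Nat.even_add]
      constructor
      · intro hJe
        rcases hiff.mp (Or.inr hJe) with h | h
        · exact absurd h hio
        · exact h
      · intro hje
        rcases hiff.mpr (Or.inr hje) with h | h
        · exact absurd h hio
        · exact h

end Cfsg.Agent.Lib.Helper38.OElm
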